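import Cfsg.Agent.H651.O9.Row
import Cfsg.Agent.H128.OZ.OddIso
import Cfsg.Agent.H727.TC.Row3

/-!
# `Ω₉(3)`: the two classes of elements of order 41, with the cube clause (S2452) (helper830)

* `pow_conj` : elements of prime order `r` of a group of order divisible by `r` exactly once;
* `row3_omega9` : `H210.TC.Row3 (PΩ₉(3))`.
-/

set_option autoImplicit false

open Cfsg Subgroup

namespace Cfsg.Agent.H830.O9

/-- if `r` divides the order of the group exactly once, all subgroups of order `r` are conjugate -/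
theorem pow_conj {G : Type*} [Group G] [Finite G] {r : ℕ} [Fact r.Prime] (hr : ¬ r ^ 2 ∣ Nat.card G) {x z : G}
    (hx : orderOf x = r) (hz : orderOf z = r) : ∃ (g : G) (k : ℕ), z = g * x ^ k * g⁻¹ := by
  have hrp : r.Prime := Fact.out
  have hd : r ∣ Nat.card G := hx ▸ orderOf_dvd_natCard x
  have hf : (Nat.card G).factorization r = 1 := by
    have h1 : 1 ≤ (Nat.card G).factorization r :=
      (hrp.dvd_iff_one_le_factorization Nat.card_pos.ne').1 hd
    have h2 : ¬ 2 ≤ (Nat.card G).factorization r := by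
      intro h
      exact hr ((hrp.pow_dvd_iff_le_factorization Nat.card_pos.ne').2 h)
    omega
  have hcx : Nat.card (zpowers x) = r ^ (Nat.card G).factorization r := by rw [hf, pow_one, Nat.card_zpowers, hx]
  have hcz : Nat.card (zpowers z) = r ^ (Nat.card G).factorization r := by rw [hf, pow_one, Nat.card_zpowers, hz]
  obtain ⟨g, hg⟩ := MulAction.exists_smul_eq G (Sylow.ofCard (zpowers x) hcx) (Sylow.ofCard (zpowers z) hcz)
  have h1 : z ∈ ((g • Sylow.ofCard (zpowers x) hcx : Sylow r G) : Subgroup G) := by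
    rw [hg]
    exact mem_zpowers z
  rw [Sylow.coe_subgroup_smul, Subgroup.mem_smul_pointwise_iff_exists] at h1
  obtain ⟨y, hy, hyz⟩ := h1
  have hy2 : y ∈ Submonoid.powers x := mem_powers_iff_mem_zpowers.2 hy
  obtain ⟨k, rfl⟩ := hy2
  exact ⟨g, k, hyz.symm⟩

/-- the centralizer of an element of order 41 of `PΩ₉(3)` is prime to 3 -/
theorem not_dvd_centralizer {x : POmega (ZMod 3) (quadFormOdd 4 (ZMod 3))} (hx : orderOf x = 41) :
    ¬ 3 ∣ Nat.card (centralizer ({x} : Set (POmega (ZMod 3) (quadFormOdd 4 (ZMod 3))))) := by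
  have : Fact (Nat.Prime 3) := ⟨Nat.prime_three⟩
  have : Fact (Nat.Prime 41) := ⟨by norm_num⟩
  have hcard : Nat.card (POmega (ZMod 3) (quadFormOdd 4 (ZMod 3))) = 65784756654489600 := by
    obtain ⟨e⟩ := H529.O9.exists_equiv
    rw [Nat.card_congr e.toEquiv, H529.O9.card_NB]
  obtain ⟨z, hz, -, -, h4, -⟩ := H128.OZ.isoMO (F := ZMod 3) (p := 3) (k := 4) (by rw [ZMod.card]; decide) (by norm_num)
    (MulEquiv.refl (POmega (ZMod 3) (quadFormOdd 4 (ZMod 3)))) (r := 41) (by norm_num)
    (by rw [ZMod.card]; norm_num) (by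
      rw [ZMod.card]
      intro i h0 h1
      have h1 : i < 8 := h1
      interval_cases i <;> norm_num)
  obtain ⟨g, k, hgk⟩ := pow_conj (r := 41) (by rw [hcard]; norm_num) hx hz
  intro hd
  obtain ⟨⟨y, hy⟩, hyo⟩ := exists_prime_orderOf_dvd_card' 3 hd
  rw [Subgroup.orderOf_mk] at hyo
  have hc : Commute x y := (mem_centralizer_singleton_iff.1 hy).symm
  have hc2 : Commute z (g * y * g⁻¹) := by
    rw [hgk]
    exact (hc.pow_left k).map (MulAut.conj g).toMonoidHom
  refine h4 _ hc2 ?_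
  have ho : orderOf (g * y * g⁻¹) = orderOf y := MulEquiv.orderOf_eq (MulAut.conj g) y
  rw [ho, hyo]

/-- **The row `PΩ₉(3)`** with orders 41, 41. -/
theorem row3_omega9' : H210.TC.Row3 (POmega (ZMod 3) (quadFormOdd 4 (ZMod 3))) := by
  obtain ⟨e⟩ := H529.O9.exists_equiv
  obtain ⟨x, y, hx, hy, h⟩ := H529.O9.exists_of_cov H651.O9.cov_NB e
  have hne : ∀ {a : POmega (ZMod 3) (quadFormOdd 4 (ZMod 3))}, orderOf a = 41 → a ≠ 1 := by
    rintro a ha rfl
    rw [orderOf_one] at ha
    exact absurd ha (by norm_num)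
  have hfin : Finite (POmega (ZMod 3) (quadFormOdd 4 (ZMod 3))) := inferInstance
  refine ⟨x, y, by rw [hx]; norm_num, by rw [hx]; norm_num, by rw [hy]; norm_num, by rw [hy]; norm_num, h, fun g => ?_⟩
  exact H727.TC.cube_of_gow Nat.prime_three (Or.inr (Or.inr (Or.inr (Or.inl
    ⟨ZMod 3, inferInstance, inferInstance, inferInstance, 4, by norm_num, by rw [ZMod.card]; decide,
      ⟨MulEquiv.refl _⟩⟩)))) (not_dvd_centralizer hx) (hne hx) (by rw [hy]; norm_num) (hne hy) h g

/-- **The row `PΩ₉(3)`** with orders 41, 41. -/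
theorem row3_omega9 {F : Type*} [Field F] [Fintype F] (hF : Fintype.card F = 3) :
    H210.TC.Row3 (POmega F (quadFormOdd 4 F)) := by
  obtain ⟨e⟩ := H529.O9.equiv_of hF
  obtain ⟨e'⟩ := H529.O9.exists_equiv
  exact H210.TC.Row3.of_equiv (e.trans e'.symm) row3_omega9'

end Cfsg.Agent.H830.O9
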